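import Cfsg.Agent.H8.Q8Aut

set_option autoImplicit false

namespace CfsgH8

open Subgroup QuaternionGroup

/-- The automorphism `i ↦ j ↦ i j` of `Q8`. -/
noncomputable def q8Rot : MulAut Q8 :=
  q8Aut (x := xa 0) (y := a 1 * xa 0) (by decide) (by decide) (by decide)

theorem q8Rot_a : q8Rot (a 1) = xa 0 := q8Aut_a _ _ _

theorem q8Rot_xa : q8Rot (xa 0) = a 1 * xa 0 := q8Aut_xa _ _ _

theorem q8Rot_pow : q8Rot ^ 3 = 1 := by
  apply q8_aut_ext
  · simp only [pow_succ, pow_zero, one_mul, MulAut.mul_apply, q8Rot_a, q8Rot_xa, map_mul,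
      MulAut.one_apply]
    decide
  · simp only [pow_succ, pow_zero, one_mul, MulAut.mul_apply, q8Rot_a, q8Rot_xa, map_mul,
      MulAut.one_apply]
    decide

theorem z3_mem_zpowers : ∀ x : Multiplicative (ZMod 3),
    x ∈ zpowers (Multiplicative.ofAdd (1 : ZMod 3)) := by
  have : ∀ x : Multiplicative (ZMod 3), ∃ i : Fin 3,
      x = Multiplicative.ofAdd (1 : ZMod 3) ^ (i : ℕ) := by decide
  intro x
  obtain ⟨i, rfl⟩ := this x
  exact pow_mem (mem_zpowers _) _

theorem z3_orderOf : orderOf (Multiplicative.ofAdd (1 : ZMod 3)) = 3 := by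
  rw [orderOf_ofAdd_eq_addOrderOf, ZMod.addOrderOf_one]

/-- The homomorphism from `Z3` given by an element of order dividing three. -/
noncomputable def z3Lift {H : Type*} [Group H] {y : H} (hy : y ^ 3 = 1) :
    Multiplicative (ZMod 3) →* H :=
  monoidHomOfForallMemZpowers z3_mem_zpowers (g' := y)
    (by rw [z3_orderOf]; exact orderOf_dvd_of_pow_eq_one hy)

theorem z3Lift_gen {H : Type*} [Group H] {y : H} (hy : y ^ 3 = 1) :
    z3Lift hy (Multiplicative.ofAdd 1) = y :=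
  monoidHomOfForallMemZpowers_apply_gen _ _

/-- The binary tetrahedral group as a semidirect product. -/
abbrev BinTet := Q8 ⋊[z3Lift q8Rot_pow] Multiplicative (ZMod 3)

theorem card_binTet : Nat.card BinTet = 24 := by
  rw [SemidirectProduct.card, q8_card]
  simp

theorem eq_one_of_mul_eq_one_coprime {H : Type*} [Group H] {x y : H} {m n : ℕ}
    (hmn : m.Coprime n) (hx : x ^ m = 1) (hy : y ^ n = 1) (h : x * y = 1) : x = 1 ∧ y = 1 := by
  have h1 : x = y⁻¹ := eq_inv_of_mul_eq_one_left h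
  have h2 : x = 1 := by
    rw [← orderOf_eq_one_iff]
    refine Nat.eq_one_of_dvd_coprimes hmn (orderOf_dvd_of_pow_eq_one hx) ?_
    rw [h1, orderOf_inv]
    exact orderOf_dvd_of_pow_eq_one hy
  exact ⟨h2, by simpa [h2] using h⟩

theorem exists_binTet_hom {H : Type*} [Group H] {x y : H} (hx : x ^ 2 ≠ 1)
    (h1 : (y * x * y⁻¹) ^ 2 = x ^ 2) (h2 : (y * x * y⁻¹) * x * (y * x * y⁻¹)⁻¹ = x⁻¹)
    (h3 : y * (y * x * y⁻¹) * y⁻¹ = x * (y * x * y⁻¹)) (hy : y ^ 3 = 1) :
    ∃ f : BinTet →* H, Function.Injective f := by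
  have hcomp : ∀ g : Multiplicative (ZMod 3),
      (q8Lift hx h1 h2).comp (z3Lift q8Rot_pow g).toMonoidHom =
        (MulAut.conj (z3Lift hy g)).toMonoidHom.comp (q8Lift hx h1 h2) := by
    intro g
    obtain ⟨n, rfl⟩ := (mem_powers_iff_mem_zpowers.mpr (z3_mem_zpowers g))
    simp only [map_pow, z3Lift_gen]
    have h0 : ∀ z, q8Lift hx h1 h2 (q8Rot z) = y * q8Lift hx h1 h2 z * y⁻¹ := by
      have : (q8Lift hx h1 h2).comp q8Rot.toMonoidHom =
          (MulAut.conj y).toMonoidHom.comp (q8Lift hx h1 h2) := by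
        apply q8_hom_ext
        · simp [q8Rot_a, q8Lift_a, q8Lift_xa]
        · rw [MonoidHom.comp_apply, MonoidHom.comp_apply, MulEquiv.coe_toMonoidHom,
            MulEquiv.coe_toMonoidHom, q8Rot_xa, map_mul, q8Lift_a,
            q8Lift_xa, MulAut.conj_apply, h3]
      exact fun z => DFunLike.congr_fun this z
    ext z
    simp only [MonoidHom.comp_apply, MulEquiv.coe_toMonoidHom]
    induction n with
    | zero => simp
    | succ n ih =>
      rw [pow_succ', pow_succ', MulAut.mul_apply, MulAut.mul_apply, h0, ih, MulAut.conj_apply]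
  refine ⟨SemidirectProduct.lift _ _ hcomp, (injective_iff_map_eq_one _).mpr ?_⟩
  rintro ⟨z, g⟩ h
  change q8Lift hx h1 h2 z * z3Lift hy g = 1 at h
  have h4 : ∀ z : Q8, z ^ 4 = 1 := by decide
  have h5 : ∀ g : Multiplicative (ZMod 3), g ^ 3 = 1 := by decide
  obtain ⟨h6, h7⟩ := eq_one_of_mul_eq_one_coprime (m := 4) (n := 3) (by norm_num)
    (by rw [← map_pow, h4, map_one]) (by rw [← map_pow, h5, map_one]) h
  have h8 : z = 1 := (injective_iff_map_eq_one _).mp (q8Lift_injective hx h1 h2) z h6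
  have hy1 : y ≠ 1 := by
    rintro rfl
    apply hx
    simp only [one_mul, inv_one, mul_one, mul_inv_cancel_right] at h2
    rw [pow_two]
    exact mul_eq_one_iff_eq_inv.mpr h2
  have h9 : ∀ g : Multiplicative (ZMod 3), g = 1 ∨ g = Multiplicative.ofAdd 1 ∨
      g ^ 2 = Multiplicative.ofAdd 1 := by decide
  have h10 : g = 1 := by
    rcases h9 g with h | h | h
    · exact h
    · rw [h, z3Lift_gen] at h7
      exact absurd h7 hy1
    · have := congrArg (z3Lift hy) h
      rw [map_pow, h7, one_pow, z3Lift_gen] at this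
      exact absurd this.symm hy1
  rw [h8, h10]
  rfl

theorem card_SL23 : Nat.card (Matrix.SpecialLinearGroup (Fin 2) (ZMod 3)) = 24 := by
  rw [Nat.card_eq_fintype_card]
  decide +kernel

theorem nonempty_binTet_equiv :
    Nonempty (BinTet ≃* Matrix.SpecialLinearGroup (Fin 2) (ZMod 3)) := by
  obtain ⟨f, hf⟩ := exists_binTet_hom (H := Matrix.SpecialLinearGroup (Fin 2) (ZMod 3))
    (x := ⟨!![0, 1; 2, 0], by decide⟩) (y := ⟨!![1, 2; 0, 1], by decide⟩)
    (by decide +kernel) (by decide +kernel) (by decide +kernel) (by decide +kernel)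
    (by decide +kernel)
  exact ⟨MulEquiv.ofBijective f ((Nat.bijective_iff_injective_and_card f).mpr
    ⟨hf, by rw [card_binTet, card_SL23]⟩)⟩

/-- Evaluation of an endomorphism of `Q8` given by images of the generators. -/
def q8Ev (u v : Q8) : Q8 → Q8
  | a i => u ^ i.val
  | xa i => v * u ^ i.val

theorem q8Ev_a : ∀ (u v : Q8) (i : Fin 4), u ^ (i : ℕ) = q8Ev u v (a 1 ^ (i : ℕ)) := by
  decide +kernel

theorem q8Ev_xa : ∀ (u v : Q8) (i : Fin 4),
    v * u ^ (i : ℕ) = q8Ev u v (xa 0 * a 1 ^ (i : ℕ)) := by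
  decide +kernel

theorem q8Ev_cases : ∀ u v : Q8, u ^ 2 ≠ 1 → v ^ 2 = u ^ 2 → v * u * v⁻¹ = u⁻¹ →
    q8Ev u v (q8Ev u v u) = a 1 → q8Ev u v (q8Ev u v v) = xa 0 →
    (u = a 1 ∧ v = xa 0) ∨
    (u ^ 2 = a 1 ^ 2 ∧ u * a 1 * u⁻¹ = (a 1)⁻¹ ∧ q8Ev u v u = a 1 * u) ∨
    (q8Ev u v u ^ 2 = a 1 ^ 2 ∧ q8Ev u v u * a 1 * (q8Ev u v u)⁻¹ = (a 1)⁻¹ ∧
      u = a 1 * q8Ev u v u) := by
  decide +kernel

/-- An element of order three acting non-trivially on a normal `Q8` gives a copy of `SL(2,3)`. -/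
theorem exists_SL23_hom {G : Type*} [Group G] (P : Subgroup G) [hP : P.Normal] (e : P ≃* Q8)
    {y : G} (hy : y ^ 3 = 1) (hyc : y ∉ centralizer (P : Set G)) :
    ∃ f : Matrix.SpecialLinearGroup (Fin 2) (ZMod 3) →* G, Function.Injective f := by
  obtain ⟨e0⟩ := nonempty_binTet_equiv
  suffices h : ∃ f : BinTet →* G, Function.Injective f by
    obtain ⟨f, hf⟩ := h
    exact ⟨f.comp e0.symm.toMonoidHom, hf.comp e0.symm.injective⟩
  let β : MulAut Q8 := e.symm.trans ((MulAut.conjNormal y : MulAut P).trans e)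
  have hβ : ∀ z, (e.symm (β z) : G) = y * e.symm z * y⁻¹ := by
    intro z
    simp [β]
  have hy' : y * y = y⁻¹ := by
    rw [eq_inv_iff_mul_eq_one, ← hy, pow_succ, pow_two]
  have hβ' : ∀ z, (e.symm (β (β z)) : G) = y⁻¹ * e.symm z * y⁻¹⁻¹ := by
    intro z
    rw [hβ, hβ, show y * (y * (e.symm z : G) * y⁻¹) * y⁻¹ = (y * y) * e.symm z * (y * y)⁻¹ by group,
      hy']
  have hβ3 : ∀ z, β (β (β z)) = z := by
    intro z
    apply e.symm.injective
    apply Subtype.ext
    rw [hβ, hβ']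
    group
  have hev : ∀ z, β z = q8Ev (β (a 1)) (β (xa 0)) z := by
    intro z
    obtain ⟨i, rfl | rfl⟩ := q8_eq_pow z
    · rw [map_pow, q8Ev_a]
    · rw [map_mul, map_pow, q8Ev_xa]
  have hinj : Function.Injective fun z : Q8 => (e.symm z : G) :=
    Subtype.val_injective.comp e.symm.injective
  have hx : (e.symm (a 1) : G) ^ 2 ≠ 1 := by
    rw [← Subgroup.coe_pow, ← map_pow, Ne, OneMemClass.coe_eq_one, map_eq_one_iff _ e.symm.injective]
    decide
  have hcoe : ∀ {u v : Q8}, u = v → (e.symm u : G) = e.symm v := fun h => by rw [h]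
  rcases q8Ev_cases (β (a 1)) (β (xa 0))
    (by rw [← map_pow, Ne, map_eq_one_iff _ β.injective]; decide)
    (by rw [← map_pow, ← map_pow]; congr 1)
    (by simp only [← map_inv, ← map_mul]; congr 1)
    (by rw [← hev, ← hev, hβ3]) (by rw [← hev, ← hev, hβ3]) with
    ⟨h1, h2⟩ | ⟨h1, h2, h3⟩ | ⟨h1, h2, h3⟩
  · exfalso
    apply hyc
    have hβ1 : β = 1 := q8_aut_ext h1 h2
    intro g hg
    have := hβ (e ⟨g, hg⟩)
    rw [hβ1, MulAut.one_apply, e.symm_apply_apply] at this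
    exact (eq_mul_inv_iff_mul_eq.mp this)
  · rw [← hev] at h3
    refine exists_binTet_hom hx (y := y) ?_ ?_ ?_ hy
    · simpa only [map_pow, Subgroup.coe_pow, hβ] using hcoe h1
    · simpa only [map_mul, map_inv, Subgroup.coe_mul, Subgroup.coe_inv, hβ] using hcoe h2
    · simpa only [map_mul, map_inv, Subgroup.coe_mul, Subgroup.coe_inv, hβ] using hcoe h3
  · rw [← hev] at h1 h2 h3
    refine exists_binTet_hom hx (y := y⁻¹) ?_ ?_ ?_ (by rw [inv_pow, hy, inv_one])
    · simpa only [map_pow, Subgroup.coe_pow, hβ'] using hcoe h1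
    · simpa only [map_mul, map_inv, Subgroup.coe_mul, Subgroup.coe_inv, hβ'] using hcoe h2
    · have h4 := hcoe h3
      rw [map_mul, Subgroup.coe_mul, hβ', hβ] at h4
      rw [← h4, inv_inv, show y⁻¹ * (y⁻¹ * e.symm (a 1) * y) * y =
        (y * y)⁻¹ * e.symm (a 1) * (y * y) by group, hy', inv_inv]

end CfsgH8
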